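import Mathlib
import Cfsg.Agent.Lib.Helper70.HH.S3786Defs

/-!
# S3786 packages (G1) LemPLift and (G2) LemSylQuot (helper75)
-/

set_option autoImplicit false

namespace Cfsg.Agent.Lib.Helper75.HH86

open Cfsg Cfsg.Agent.Lib.Helper70.HH86

universe u

/-- (G1) A `p`-element of a quotient lifts to a `p`-element. -/
theorem lemPLift : LemPLift.{u} := by
  intro p _ G _ _ N _ y hy
  have hp : p.Prime := Fact.out
  obtain ⟨k, hk⟩ := hy
  obtain ⟨x0, rfl⟩ := QuotientGroup.mk_surjective y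
  have hn : 0 < orderOf x0 := orderOf_pos x0
  obtain ⟨a, m, hpm, hnm⟩ := Nat.exists_eq_pow_mul_and_not_dvd hn.ne' p hp.ne_one
  have hcop : Nat.Coprime m (p ^ k) := by
    apply Nat.Coprime.pow_right
    exact (Nat.Prime.coprime_iff_not_dvd hp).2 hpm |>.symm
  have hbez := Int.gcd_eq_gcd_ab (m : ℤ) ((p ^ k : ℕ) : ℤ)
  have hg : Int.gcd (m : ℤ) ((p ^ k : ℕ) : ℤ) = 1 := by
    rw [Int.gcd_natCast_natCast]; exact hcop
  rw [hg] at hbez
  set u := Int.gcdA (m : ℤ) ((p ^ k : ℕ) : ℤ) with hu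
  set v := Int.gcdB (m : ℤ) ((p ^ k : ℕ) : ℤ) with hv
  refine ⟨x0 ^ ((m : ℤ) * u), ⟨a, ?_⟩, ?_⟩
  · rw [← zpow_natCast, ← zpow_mul]
    have e : (m : ℤ) * u * ((p ^ a : ℕ) : ℤ) = ((orderOf x0 : ℕ) : ℤ) * u := by
      rw [hnm]; push_cast; ring
    rw [e, zpow_mul, zpow_natCast, pow_orderOf_eq_one, one_zpow]
  · rw [QuotientGroup.mk_zpow]
    have e : (m : ℤ) * u = 1 - ((p ^ k : ℕ) : ℤ) * v := by
      have := hbez
      push_cast at this ⊢
      linarith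
    rw [e, zpow_sub, zpow_one, zpow_mul, zpow_natCast, hk, one_zpow, inv_one, mul_one]

/-- (G2) Abelian Sylow `2`-subgroups pass to quotients. -/
theorem lemSylQuot : LemSylQuot.{u} := by
  intro G _ _ N _ hS S
  obtain ⟨P⟩ := (inferInstance : Nonempty (Sylow 2 G))
  have hπ : Function.Surjective (QuotientGroup.mk' N) := QuotientGroup.mk'_surjective N
  let P' : Sylow 2 (G ⧸ N) := P.mapSurjective hπ
  obtain ⟨g, hg⟩ := MulAction.exists_smul_eq (G ⧸ N) P' S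
  have hP := hS P
  have key : ∀ a ∈ (S : Subgroup (G ⧸ N)), ∀ b ∈ (S : Subgroup (G ⧸ N)), a * b = b * a := by
    intro a ha b hb
    rw [← hg] at ha hb
    rw [Sylow.smul_def, Sylow.pointwise_smul_def,
      Subgroup.mem_pointwise_smul_iff_inv_smul_mem] at ha hb
    obtain ⟨x, hx, hxa⟩ := ha
    obtain ⟨z, hz, hzb⟩ := hb
    have hc : x * z = z * x := by
      have := hP.is_comm.comm ⟨x, hx⟩ ⟨z, hz⟩
      exact congrArg Subtype.val this
    have hxa' : (QuotientGroup.mk' N) x = g⁻¹ * a * g := by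
      rw [hxa, ← map_inv, MulAut.smul_def, MulAut.conj_apply, inv_inv]
    have hzb' : (QuotientGroup.mk' N) z = g⁻¹ * b * g := by
      rw [hzb, ← map_inv, MulAut.smul_def, MulAut.conj_apply, inv_inv]
    have h1 : (g⁻¹ * a * g) * (g⁻¹ * b * g) = (g⁻¹ * b * g) * (g⁻¹ * a * g) := by
      rw [← hxa', ← hzb', ← map_mul, ← map_mul, hc]
    have h2 : a * b = g * ((g⁻¹ * a * g) * (g⁻¹ * b * g)) * g⁻¹ := by group
    have h3 : b * a = g * ((g⁻¹ * b * g) * (g⁻¹ * a * g)) * g⁻¹ := by group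
    rw [h2, h3, h1]
  exact ⟨⟨fun a b => Subtype.ext (key a a.2 b b.2)⟩⟩

end Cfsg.Agent.Lib.Helper75.HH86
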