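import Mathlib
import Cfsg.Agent.Lib.Helper70.HH.S3786Defs
import Cfsg.Agent.Lib.Helper63.PLength
import Cfsg.Agent.Lib.Helper63.HallHigman
import Cfsg.Agent.Lib.Helper69.PSolvable

/-!
# S3786 packages (I1) MainA and (I2) MainB: the inductions on the exponent (helper75)
-/

set_option autoImplicit false

namespace Cfsg.Agent.Lib.Helper75.HH86

open Cfsg Cfsg.Agent.Lib.Helper63 Cfsg.Agent.Lib.Helper70.HH86

universe u

/-- `ExpLE` passes to quotients. -/
theorem expLE_quot (hL : LemPLift.{u}) {p : ℕ} [Fact p.Prime] {G : Type u} [Group G] [Finite G]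
    (N : Subgroup G) [N.Normal] {e : ℕ} (h : ExpLE p e G) : ExpLE p e (G ⧸ N) := by
  intro y hy
  obtain ⟨x, hx, rfl⟩ := hL N y hy
  rw [← QuotientGroup.mk_pow, h x hx]
  rfl

/-- `HypA` passes to quotients. -/
theorem hypA_quot (hS : LemSylQuot.{u}) {p : ℕ} {G : Type u} [Group G] [Finite G]
    (N : Subgroup G) [N.Normal] (h : HypA p G) : HypA p (G ⧸ N) :=
  h.imp id (fun h' => hS N h')

/-- No nontrivial `p`-elements: the order is prime to `p`. -/
theorem coprime_of_expLE_zero {p : ℕ} [Fact p.Prime] {G : Type u} [Group G] [Finite G]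
    (h : ExpLE p 0 G) : (Nat.card G).Coprime p := by
  rw [Nat.coprime_comm, Nat.Prime.coprime_iff_not_dvd Fact.out]
  intro hdvd
  obtain ⟨x, hx⟩ := exists_prime_orderOf_dvd_card' p hdvd
  have h1 : x ^ p ^ 0 = 1 := h x ⟨1, by rw [pow_one, ← hx, pow_orderOf_eq_one]⟩
  rw [pow_zero, pow_one] at h1
  rw [h1, orderOf_one] at hx
  exact (Fact.out : p.Prime).ne_one hx.symm

theorem mainA_aux (hK : KeyA.{u}) (hL : LemPLift.{u}) (hS : LemSylQuot.{u}) (p : ℕ)
    [Fact p.Prime] (hp2 : p ≠ 2) (e : ℕ) :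
    ∀ (G : Type u) [Group G] [Finite G], Cfsg.IsPSolvable p G → HypA p G → ExpLE p e G →
      Cfsg.PLengthLE p e G := by
  induction e with
  | zero =>
    intro G _ _ _ _ hE
    exact plengthLE_zero_iff.2 (coprime_of_expLE_zero hE)
  | succ e ih =>
    intro G _ _ hsol hA hE
    set N := pPrimeCore p G with hN
    have hsol1 : Cfsg.IsPSolvable p (G ⧸ N) :=
      Cfsg.Agent.Lib.Helper69.isPSolvable_of_surj p (QuotientGroup.mk' N)
        (QuotientGroup.mk'_surjective N) hsol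
    have h0 : pPrimeCore p (G ⧸ N) = ⊥ := pPrimeCore_quotient_eq_bot p G
    have hA1 : HypA p (G ⧸ N) := hypA_quot hS N hA
    have hE1 : ExpLE p (e + 1) (G ⧸ N) := expLE_quot hL N hE
    have hkey := hK hp2 hsol1 h0 hA1 e hE1
    set R := pCore p (G ⧸ N) with hR
    have hsol2 : Cfsg.IsPSolvable p ((G ⧸ N) ⧸ R) :=
      Cfsg.Agent.Lib.Helper69.isPSolvable_of_surj p (QuotientGroup.mk' R)
        (QuotientGroup.mk'_surjective R) hsol1
    have hA2 : HypA p ((G ⧸ N) ⧸ R) := hypA_quot hS R hA1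
    have h3 : PLengthLE p e ((G ⧸ N) ⧸ R) := ih _ hsol2 hA2 hkey
    have h4 : PLengthLE p (1 + e) (G ⧸ N) :=
      plengthLE_of_normal R (plengthLE_one_of_isPGroup (pCore_isPGroup' p _)) h3
    have h5 : PLengthLE p (0 + (1 + e)) G :=
      plengthLE_of_normal N (plengthLE_zero_iff.2 (card_pPrimeCore_coprime' p G)) h4
    have e' : 0 + (1 + e) = e + 1 := by ring
    rw [e'] at h5
    exact h5

/-- (I1) Part (a). -/
theorem mainA (hK : KeyA.{u}) (hL : LemPLift.{u}) (hS : LemSylQuot.{u}) : MainA.{u} := by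
  intro p _ G _ _ hp2 hsol hA e hE
  exact mainA_aux hK hL hS p hp2 e G hsol hA hE

theorem mainB_aux (hK : KeyB.{u}) (hL : LemPLift.{u}) (p : ℕ)
    [Fact p.Prime] (hp2 : p ≠ 2) (e : ℕ) :
    ∀ (G : Type u) [Group G] [Finite G], Cfsg.IsPSolvable p G → ExpLE p e G →
      Cfsg.PLengthLE p (2 * e) G := by
  induction e with
  | zero =>
    intro G _ _ _ hE
    exact plengthLE_zero_iff.2 (coprime_of_expLE_zero hE)
  | succ e ih =>
    intro G _ _ hsol hE
    set N := pPrimeCore p G with hN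
    have hsol1 : Cfsg.IsPSolvable p (G ⧸ N) :=
      Cfsg.Agent.Lib.Helper69.isPSolvable_of_surj p (QuotientGroup.mk' N)
        (QuotientGroup.mk'_surjective N) hsol
    have h0 : pPrimeCore p (G ⧸ N) = ⊥ := pPrimeCore_quotient_eq_bot p G
    have hE1 : ExpLE p (e + 1) (G ⧸ N) := expLE_quot hL N hE
    have hkey := hK hp2 hsol1 h0 e hE1
    set R := pCore p (G ⧸ N) with hR
    have hsol2 : Cfsg.IsPSolvable p ((G ⧸ N) ⧸ R) :=
      Cfsg.Agent.Lib.Helper69.isPSolvable_of_surj p (QuotientGroup.mk' R)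
        (QuotientGroup.mk'_surjective R) hsol1
    set K := pPrimeCore p ((G ⧸ N) ⧸ R) with hKdef
    have hsol3 : Cfsg.IsPSolvable p (((G ⧸ N) ⧸ R) ⧸ K) :=
      Cfsg.Agent.Lib.Helper69.isPSolvable_of_surj p (QuotientGroup.mk' K)
        (QuotientGroup.mk'_surjective K) hsol2
    set R2 := pCore p (((G ⧸ N) ⧸ R) ⧸ K) with hR2
    have hsol4 : Cfsg.IsPSolvable p ((((G ⧸ N) ⧸ R) ⧸ K) ⧸ R2) :=
      Cfsg.Agent.Lib.Helper69.isPSolvable_of_surj p (QuotientGroup.mk' R2)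
        (QuotientGroup.mk'_surjective R2) hsol3
    have h1 : PLengthLE p (2 * e) ((((G ⧸ N) ⧸ R) ⧸ K) ⧸ R2) := ih _ hsol4 hkey
    have h2 : PLengthLE p (1 + 2 * e) (((G ⧸ N) ⧸ R) ⧸ K) :=
      plengthLE_of_normal R2 (plengthLE_one_of_isPGroup (pCore_isPGroup' p _)) h1
    have h3 : PLengthLE p (0 + (1 + 2 * e)) ((G ⧸ N) ⧸ R) :=
      plengthLE_of_normal K (plengthLE_zero_iff.2 (card_pPrimeCore_coprime' p _)) h2
    have h4 : PLengthLE p (1 + (0 + (1 + 2 * e))) (G ⧸ N) :=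
      plengthLE_of_normal R (plengthLE_one_of_isPGroup (pCore_isPGroup' p _)) h3
    have h5 : PLengthLE p (0 + (1 + (0 + (1 + 2 * e)))) G :=
      plengthLE_of_normal N (plengthLE_zero_iff.2 (card_pPrimeCore_coprime' p G)) h4
    have e' : 0 + (1 + (0 + (1 + 2 * e))) = 2 * (e + 1) := by ring
    rw [e'] at h5
    exact h5

/-- (I2) Part (b). -/
theorem mainB (hK : KeyB.{u}) (hL : LemPLift.{u}) : MainB.{u} := by
  intro p _ G _ _ hp2 hsol e hE
  exact mainB_aux hK hL p hp2 e G hsol hE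

end Cfsg.Agent.Lib.Helper75.HH86
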