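import Mathlib
import Cfsg.Agent.Lib.Helper70.HH.S3786Defs2

/-!
# S3786 part 2, packages (P2) LemPieceExists and (P3) LemPieceConj (helper75)
-/

set_option autoImplicit false

namespace Cfsg.Agent.Lib.Helper75.HH86

open Cfsg Cfsg.Agent.Lib.Helper70.HH86

universe u v w

/-- `CenOn` is transported by conjugation: `a` is central on `ρ(t) U` iff `t⁻¹ a t` is central
on `U`. -/
theorem cenOn_map_iff {F : Type w} [Field F] {H : Type u} [Group H] {V : Type v}
    [AddCommGroup V] [Module F V] (ρ : Representation F H V) (Q : Subgroup H)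
    (U : Submodule F V) (t : H) (h1 : ∀ a ∈ Q, t * a * t⁻¹ ∈ Q) (h2 : ∀ a ∈ Q, t⁻¹ * a * t ∈ Q)
    (a : H) : CenOn ρ Q (U.map (ρ t)) a ↔ CenOn ρ Q U (t⁻¹ * a * t) := by
  constructor
  · rintro ⟨haQ, hc⟩
    refine ⟨h2 a haQ, fun b hb w hw => ?_⟩
    have h3 := hc (t * b * t⁻¹) (h1 b hb) (ρ t w) (Submodule.mem_map_of_mem hw)
    have e1 : ρ (a * (t * b * t⁻¹)) (ρ t w) = ρ t (ρ (t⁻¹ * a * t * b) w) := by
      rw [← Module.End.mul_apply, ← Module.End.mul_apply, ← map_mul, ← map_mul]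
      congr 2; group
    have e2 : ρ ((t * b * t⁻¹) * a) (ρ t w) = ρ t (ρ (b * (t⁻¹ * a * t)) w) := by
      rw [← Module.End.mul_apply, ← Module.End.mul_apply, ← map_mul, ← map_mul]
      congr 2; group
    rw [e1, e2] at h3
    have hinv : ∀ x : V, ρ t⁻¹ (ρ t x) = x := by
      intro x
      rw [← Module.End.mul_apply, ← map_mul, inv_mul_cancel, map_one, Module.End.one_apply]
    have h4 := congrArg (ρ t⁻¹) h3
    rw [hinv, hinv] at h4
    exact h4
  · rintro ⟨haQ, hc⟩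
    have haQ' : a ∈ Q := by
      have := h1 _ haQ
      have e : t * (t⁻¹ * a * t) * t⁻¹ = a := by group
      rwa [e] at this
    refine ⟨haQ', fun b hb w' hw' => ?_⟩
    obtain ⟨w, hw, rfl⟩ := hw'
    have h3 := hc (t⁻¹ * b * t) (h2 b hb) w hw
    have e1 : ρ (a * b) (ρ t w) = ρ t (ρ (t⁻¹ * a * t * (t⁻¹ * b * t)) w) := by
      rw [← Module.End.mul_apply, ← Module.End.mul_apply, ← map_mul, ← map_mul]
      congr 2; group
    have e2 : ρ (b * a) (ρ t w) = ρ t (ρ ((t⁻¹ * b * t) * (t⁻¹ * a * t)) w) := by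
      rw [← Module.End.mul_apply, ← Module.End.mul_apply, ← map_mul, ← map_mul]
      congr 2; group
    rw [e1, e2, h3]

/-- (P3) Translates of pieces are pieces. -/
theorem lemPieceConj : LemPieceConj.{u, v, w} := by
  intro F _ H _ V _ _ ρ Q W U t h1 h2 hWt hWt' hU
  obtain ⟨hU0, hUW, hUQ, hUs, hUfull⟩ := hU
  have hinv : ∀ x : V, ρ t⁻¹ (ρ t x) = x := by
    intro x
    rw [← Module.End.mul_apply, ← map_mul, inv_mul_cancel, map_one, Module.End.one_apply]
  have hinv' : ∀ x : V, ρ t (ρ t⁻¹ x) = x := by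
    intro x
    rw [← Module.End.mul_apply, ← map_mul, mul_inv_cancel, map_one, Module.End.one_apply]
  have hconj : ∀ a : H, ∀ x : V, ρ a (ρ t x) = ρ t (ρ (t⁻¹ * a * t) x) := by
    intro a x
    rw [← Module.End.mul_apply, ← Module.End.mul_apply, ← map_mul, ← map_mul]
    congr 2; group
  refine ⟨?_, ?_, ?_, ?_, ?_⟩
  · intro h0
    apply hU0
    rw [eq_bot_iff]
    intro u hu
    have : ρ t u ∈ U.map (ρ t) := Submodule.mem_map_of_mem hu
    rw [h0, Submodule.mem_bot] at this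
    have h3 := hinv u
    rw [this, map_zero] at h3
    rw [Submodule.mem_bot]
    exact h3.symm
  · rintro w' ⟨u, hu, rfl⟩
    exact hWt (Submodule.mem_map_of_mem (hUW hu))
  · intro a ha
    rintro w' ⟨w'', ⟨u, hu, rfl⟩, rfl⟩
    rw [hconj]
    exact Submodule.mem_map_of_mem (hUQ _ (h2 a ha) (Submodule.mem_map_of_mem hu))
  · intro a ha
    obtain ⟨s, hs⟩ := hUs _ ((cenOn_map_iff ρ Q U t h1 h2 a).1 ha)
    refine ⟨s, ?_⟩
    rintro w' ⟨u, hu, rfl⟩
    rw [hconj, hs u hu, map_smul]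
  · intro w hw hfull
    have hw' : ρ t⁻¹ w ∈ U := by
      apply hUfull _ (hWt' (Submodule.mem_map_of_mem hw))
      intro a' ha' s hs
      have hc : CenOn ρ Q (U.map (ρ t)) (t * a' * t⁻¹) := by
        rw [cenOn_map_iff ρ Q U t h1 h2]
        have e : t⁻¹ * (t * a' * t⁻¹) * t = a' := by group
        rw [e]; exact ha'
      have h3 := hfull _ hc s (by
        rintro w' ⟨u, hu, rfl⟩
        rw [hconj]
        have e : t⁻¹ * (t * a' * t⁻¹) * t = a' := by group
        rw [e, hs u hu, map_smul])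
      have e1 : ρ a' (ρ t⁻¹ w) = ρ t⁻¹ (ρ (t * a' * t⁻¹) w) := by
        rw [← Module.End.mul_apply, ← Module.End.mul_apply, ← map_mul, ← map_mul]
        congr 2; group
      rw [e1, h3, map_smul]
    have := Submodule.mem_map_of_mem (f := ρ t) hw'
    rwa [hinv'] at this

/-- (P2) Existence of a piece. -/
theorem lemPieceExists : LemPieceExists.{u, v, w} := by
  intro F _ _ H _ _ V _ _ _ ρ Q W hW0 hWQ _
  classical
  have hwf : WellFounded ((· < ·) : Submodule F V → Submodule F V → Prop) := wellFounded_lt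
  let S : Set (Submodule F V) := {E | E ≠ ⊥ ∧ E ≤ W ∧ ∀ a ∈ Q, E.map (ρ a) ≤ E}
  have hS : S.Nonempty := ⟨W, hW0, le_rfl, hWQ⟩
  obtain ⟨hE0, hEW, hEQ⟩ := hwf.min_mem S hS
  set E := hwf.min S hS with hEdef
  have hmin : ∀ E' : Submodule F V, E' ≠ ⊥ → E' ≤ E → (∀ a ∈ Q, E'.map (ρ a) ≤ E') →
      E' = E := by
    intro E' h0 hle hinv
    by_contra hne
    exact hwf.not_lt_min S (show E' ∈ S from ⟨h0, hle.trans hEW, hinv⟩)
      (lt_of_le_of_ne hle hne)
  have hEmem : ∀ a ∈ Q, ∀ e ∈ E, ρ a e ∈ E :=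
    fun a ha e he => hEQ a ha (Submodule.mem_map_of_mem he)
  have hWmem : ∀ a ∈ Q, ∀ e ∈ W, ρ a e ∈ W :=
    fun a ha e he => hWQ a ha (Submodule.mem_map_of_mem he)
  -- Schur
  have hschur : ∀ a, CenOn ρ Q E a → ∃ s : F, ∀ e ∈ E, ρ a e = s • e := by
    rintro a ⟨haQ, hac⟩
    have : Nontrivial ↥E := Submodule.nontrivial_iff_ne_bot.2 hE0
    let φ : Module.End F ↥E := (ρ a).restrict (hEmem a haQ)
    obtain ⟨s, hs⟩ := Module.End.exists_eigenvalue φ
    obtain ⟨v, hv⟩ := hs.exists_hasEigenvector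
    have hv1 : ρ a (v : V) = s • (v : V) := by
      have := hv.apply_eq_smul
      have h2 := congrArg Subtype.val this
      simpa [φ] using h2
    have hv0 : (v : V) ≠ 0 := fun h => hv.2 (Subtype.ext h)
    let Es : Submodule F V := E ⊓ LinearMap.ker (ρ a - s • (1 : Module.End F V))
    have hmemEs : ∀ e : V, e ∈ Es ↔ e ∈ E ∧ ρ a e = s • e := by
      intro e
      simp only [Es, Submodule.mem_inf, LinearMap.mem_ker, LinearMap.sub_apply,
        LinearMap.smul_apply, Module.End.one_apply, sub_eq_zero]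
    have hEs0 : Es ≠ ⊥ := by
      intro h0
      have : (v : V) ∈ Es := (hmemEs _).2 ⟨v.2, hv1⟩
      rw [h0, Submodule.mem_bot] at this
      exact hv0 this
    have hEsQ : ∀ b ∈ Q, Es.map (ρ b) ≤ Es := by
      intro b hb
      rintro e' ⟨e, he, rfl⟩
      obtain ⟨heE, hes⟩ := (hmemEs e).1 he
      refine (hmemEs _).2 ⟨hEmem b hb e heE, ?_⟩
      have h3 := hac b hb e heE
      rw [map_mul, map_mul, Module.End.mul_apply, Module.End.mul_apply] at h3
      rw [h3, hes, map_smul]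
    have hEs := hmin Es hEs0 inf_le_left hEsQ
    refine ⟨s, fun e he => ?_⟩
    have : e ∈ Es := by rw [hEs]; exact he
    exact ((hmemEs e).1 this).2
  -- the piece
  let U : Submodule F V :=
    { carrier := {w | w ∈ W ∧ ∀ a, CenOn ρ Q E a → ∀ s : F, (∀ e ∈ E, ρ a e = s • e) →
        ρ a w = s • w}
      add_mem' := by
        rintro x y ⟨hx, hx'⟩ ⟨hy, hy'⟩
        refine ⟨W.add_mem hx hy, fun a ha s hs => ?_⟩
        rw [map_add, hx' a ha s hs, hy' a ha s hs, smul_add]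
      zero_mem' := ⟨W.zero_mem, fun a _ s _ => by rw [map_zero, smul_zero]⟩
      smul_mem' := by
        rintro c x ⟨hx, hx'⟩
        refine ⟨W.smul_mem c hx, fun a ha s hs => ?_⟩
        rw [map_smul, hx' a ha s hs, smul_comm] }
  have hmemU : ∀ w : V, w ∈ U ↔ (w ∈ W ∧ ∀ a, CenOn ρ Q E a → ∀ s : F,
      (∀ e ∈ E, ρ a e = s • e) → ρ a w = s • w) := fun w => Iff.rfl
  have hEU : E ≤ U := fun e he => (hmemU e).2 ⟨hEW he, fun a _ s hs => hs e he⟩
  -- conjugates of central elements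
  have hconjC : ∀ a, CenOn ρ Q E a → ∀ b ∈ Q, CenOn ρ Q E (b⁻¹ * a * b) := by
    rintro a ⟨haQ, hac⟩ b hb
    refine ⟨Q.mul_mem (Q.mul_mem (Q.inv_mem hb) haQ) hb, fun c hc e he => ?_⟩
    have e1 : ρ (b⁻¹ * a * b * c) e = ρ b⁻¹ (ρ (a * (b * c)) e) := by
      rw [← Module.End.mul_apply, ← map_mul]; congr 2; group
    have e2 : ρ (c * (b⁻¹ * a * b)) e = ρ (c * b⁻¹) (ρ (a * b) e) := by
      rw [← Module.End.mul_apply, ← map_mul]; congr 2; group
    rw [e1, e2, hac (b * c) (Q.mul_mem hb hc) e he, hac b hb e he,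
      ← Module.End.mul_apply, ← map_mul, ← Module.End.mul_apply, ← map_mul]
    congr 2; group
  have hconjS : ∀ a, CenOn ρ Q E a → ∀ b ∈ Q, ∀ s : F, (∀ e ∈ E, ρ a e = s • e) →
      ∀ e ∈ E, ρ (b⁻¹ * a * b) e = s • e := by
    intro a _ b hb s hs e he
    have e1 : ρ (b⁻¹ * a * b) e = ρ b⁻¹ (ρ a (ρ b e)) := by
      rw [← Module.End.mul_apply, ← Module.End.mul_apply, ← map_mul, ← map_mul, mul_assoc]
    rw [e1, hs _ (hEmem b hb e he), map_smul, ← Module.End.mul_apply, ← map_mul,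
      inv_mul_cancel, map_one, Module.End.one_apply]
  have hUQ : ∀ b ∈ Q, ∀ w ∈ U, ρ b w ∈ U := by
    intro b hb w hw
    obtain ⟨hwW, hw'⟩ := (hmemU w).1 hw
    refine (hmemU _).2 ⟨hWmem b hb w hwW, fun a ha s hs => ?_⟩
    have e1 : ρ a (ρ b w) = ρ b (ρ (b⁻¹ * a * b) w) := by
      rw [← Module.End.mul_apply, ← Module.End.mul_apply, ← map_mul, ← map_mul]
      congr 2; group
    rw [e1, hw' _ (hconjC a ha b hb) s (hconjS a ha b hb s hs), map_smul]
  have hcenU : ∀ a, CenOn ρ Q U a → CenOn ρ Q E a :=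
    fun a ha => ⟨ha.1, fun b hb e he => ha.2 b hb e (hEU he)⟩
  refine ⟨U, ?_, ?_, ?_, ?_, ?_⟩
  · intro h0
    apply hE0
    rw [eq_bot_iff]
    intro e he
    have := hEU he
    rw [h0] at this
    exact this
  · intro w hw
    exact ((hmemU w).1 hw).1
  · intro b hb
    rintro w' ⟨w, hw, rfl⟩
    exact hUQ b hb w hw
  · intro a ha
    obtain ⟨s, hs⟩ := hschur a (hcenU a ha)
    exact ⟨s, fun w hw => ((hmemU w).1 hw).2 a (hcenU a ha) s hs⟩
  · intro w hwW hfull
    refine (hmemU w).2 ⟨hwW, fun a ha s hs => ?_⟩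
    have haU : CenOn ρ Q U a := by
      refine ⟨ha.1, fun b hb u hu => ?_⟩
      rw [map_mul, map_mul, Module.End.mul_apply, Module.End.mul_apply,
        ((hmemU _).1 (hUQ b hb u hu)).2 a ha s hs, ((hmemU u).1 hu).2 a ha s hs, map_smul]
    exact hfull a haU s (fun u hu => ((hmemU u).1 hu).2 a ha s hs)

end Cfsg.Agent.Lib.Helper75.HH86
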