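import Mathlib
import Cfsg.Agent.Lib.Helper70.HH.S3786Defs2
import Cfsg.Agent.Lib.Helper32.TBInd

/-!
# S3786 part 2, package (P5) LemStab (helper75)
-/

set_option autoImplicit false

namespace Cfsg.Agent.Lib.Helper75.HH86

open Cfsg Cfsg.Agent.Lib.Helper70.HH86 Cfsg.Agent.Lib.Helper32

universe u v w

/-- Invariance under an operator passes to its powers. -/
theorem pow_apply_mem_of_invariant {F : Type w} [Field F] {V : Type v} [AddCommGroup V]
    [Module F V] (U : Submodule F V) (f : Module.End F V) (hf : ∀ u ∈ U, f u ∈ U) (k : ℕ) :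
    ∀ u ∈ U, (f ^ k) u ∈ U := by
  induction k with
  | zero => intro u hu; simpa using hu
  | succ k ih =>
    intro u hu
    rw [pow_succ, Module.End.mul_apply]
    exact ih _ (hf u hu)

/-- (P5) The stabilizer in `⟨t⟩` of a piece. -/
theorem lemStab (hC : LemPieceConj.{u, v, w}) (hI : LemPieceIndep.{u, v, w}) :
    LemStab.{u, v, w} := by
  intro p _ F _ _ H _ _ V _ _ _ ρ Q W U t n hcl2 h1 h2 hWt hWt' hU htn hnz
  classical
  have hp : p.Prime := Fact.out
  obtain ⟨hU0, hUW, hUQ, hUs, hUfull⟩ := id hU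
  have hVnt : Nontrivial V := by
    obtain ⟨u, hu, hu0⟩ := (Submodule.ne_bot_iff U).1 hU0
    exact ⟨⟨u, 0, hu0⟩⟩
  have hρpow : ∀ i : ℕ, ρ (t ^ i) = (ρ t) ^ i := fun i => map_pow ρ t i
  -- powers of `t` normalize `Q` and stabilize `W`
  have hQpow : ∀ i : ℕ, (∀ a ∈ Q, t ^ i * a * (t ^ i)⁻¹ ∈ Q) ∧
      (∀ a ∈ Q, (t ^ i)⁻¹ * a * t ^ i ∈ Q) := by
    intro i
    induction i with
    | zero => simp
    | succ i ih =>
      refine ⟨fun a ha => ?_, fun a ha => ?_⟩
      · have := h1 _ (ih.1 a ha)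
        have e : t * (t ^ i * a * (t ^ i)⁻¹) * t⁻¹ = t ^ (i + 1) * a * (t ^ (i + 1))⁻¹ := by
          rw [pow_succ']; group
        rwa [e] at this
      · have := ih.2 _ (h2 a ha)
        have e : (t ^ i)⁻¹ * (t⁻¹ * a * t) * t ^ i = (t ^ (i + 1))⁻¹ * a * t ^ (i + 1) := by
          rw [pow_succ']; group
        rwa [e] at this
  have hWmem : ∀ w ∈ W, ρ t w ∈ W := fun w hw => hWt (Submodule.mem_map_of_mem hw)
  have hWmem' : ∀ w ∈ W, ρ t⁻¹ w ∈ W := fun w hw => hWt' (Submodule.mem_map_of_mem hw)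
  have hWpow : ∀ i : ℕ, W.map (ρ (t ^ i)) ≤ W ∧ W.map (ρ (t ^ i)⁻¹) ≤ W := by
    intro i
    induction i with
    | zero =>
      constructor
      · rintro w' ⟨w, hw, rfl⟩; simpa using hw
      · rintro w' ⟨w, hw, rfl⟩; simpa using hw
    | succ i ih =>
      constructor
      · rintro w' ⟨w, hw, rfl⟩
        rw [pow_succ', map_mul, Module.End.mul_apply]
        exact hWmem _ (ih.1 (Submodule.mem_map_of_mem hw))
      · rintro w' ⟨w, hw, rfl⟩
        rw [pow_succ', mul_inv_rev, map_mul, Module.End.mul_apply]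
        exact ih.2 (Submodule.mem_map_of_mem (hWmem' w hw))
  have hpiece : ∀ i : ℕ, IsPiece ρ Q W (U.map (ρ (t ^ i))) := fun i =>
    hC ρ Q W U (t ^ i) (hQpow i).1 (hQpow i).2 (hWpow i).1 (hWpow i).2 hU
  -- stability under powers
  have hstpow : ∀ g : H, U.map (ρ g) ≤ U → ∀ c : ℕ, U.map (ρ (g ^ c)) ≤ U := by
    intro g hg c
    rintro w' ⟨u, hu, rfl⟩
    rw [map_pow]
    exact pow_apply_mem_of_invariant U (ρ g) (fun u hu => hg (Submodule.mem_map_of_mem hu)) c u hu
  -- the least `j`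
  have hex : ∃ j : ℕ, U.map (ρ (t ^ p ^ j)) ≤ U := by
    refine ⟨n, ?_⟩
    rintro w' ⟨u, hu, rfl⟩
    rw [htn, map_one]
    simpa using hu
  have hjn : Nat.find hex ≤ n := by
    apply Nat.find_min' hex
    rintro w' ⟨u, hu, rfl⟩
    rw [htn, map_one]
    simpa using hu
  have hj : U.map (ρ (t ^ p ^ (Nat.find hex))) ≤ U := Nat.find_spec hex
  set j := Nat.find hex with hjdef
  -- no smaller power stabilizes `U`
  have hnostab : ∀ i : ℕ, 0 < i → i < p ^ j → ¬ U.map (ρ (t ^ i)) ≤ U := by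
    intro i hi0 hij hst
    obtain ⟨a, m, hpm, him⟩ := Nat.exists_eq_pow_mul_and_not_dvd hi0.ne' p hp.ne_one
    have haj : a < j := by
      have h3 : p ^ a ≤ i := by
        rw [him]
        exact Nat.le_mul_of_pos_right _ (Nat.pos_of_ne_zero (fun h0 => hpm (h0 ▸ dvd_zero p)))
      exact (Nat.pow_lt_pow_iff_right hp.one_lt).1 (lt_of_le_of_lt h3 hij)
    have hn1 : 1 < p ^ n := Nat.one_lt_pow (by omega) hp.one_lt
    have hcop : Nat.Coprime m (p ^ n) :=
      Nat.Coprime.pow_right _ ((Nat.Prime.coprime_iff_not_dvd hp).2 hpm).symm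
    obtain ⟨c, -, hc⟩ := Nat.exists_mul_mod_eq_one_of_coprime hcop hn1
    have hmc : m * c = p ^ n * (m * c / p ^ n) + 1 := by
      have := Nat.div_add_mod (m * c) (p ^ n)
      rw [hc] at this
      exact this.symm
    have hpow : (t ^ i) ^ c = t ^ p ^ a := by
      rw [← pow_mul, him, mul_assoc, hmc, mul_add, mul_one, pow_add, ← mul_assoc,
        mul_comm (p ^ a) (p ^ n), mul_assoc, pow_mul, htn, one_pow, one_mul]
    have h4 := hstpow (t ^ i) hst c
    rw [hpow] at h4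
    exact Nat.find_min hex haj h4
  -- the translates are distinct
  have hinjρ : ∀ (g : H) (x y : V), ρ g x = ρ g y → x = y := by
    intro g x y hxy
    have h3 := congrArg (ρ g⁻¹) hxy
    rwa [← Module.End.mul_apply, ← Module.End.mul_apply, ← map_mul, inv_mul_cancel, map_one,
      Module.End.one_apply, Module.End.one_apply] at h3
  have hdist : ∀ i i' : ℕ, i < i' → i' < p ^ j →
      U.map (ρ (t ^ i)) ≠ U.map (ρ (t ^ i')) := by
    intro i i' hii hi' heq
    apply hnostab (i' - i) (by omega) (by omega)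
    rintro w' ⟨u, hu, rfl⟩
    have h3 : ρ (t ^ i') u ∈ U.map (ρ (t ^ i)) := by
      rw [heq]; exact Submodule.mem_map_of_mem hu
    obtain ⟨u', hu', hu'e⟩ := h3
    have h4 : ρ (t ^ i') u = ρ (t ^ i) (ρ (t ^ (i' - i)) u) := by
      rw [← Module.End.mul_apply, ← map_mul, ← pow_add]
      congr 3; omega
    rw [h4] at hu'e
    have h5 := hinjρ _ _ _ hu'e
    rw [← h5]; exact hu'
  have hUsinj : Function.Injective (fun i : Fin (p ^ j) => U.map (ρ (t ^ (i : ℕ)))) := by
    intro i i' heq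
    apply Fin.ext
    by_contra hne
    rcases Nat.lt_or_gt_of_ne hne with h | h
    · exact hdist _ _ h i'.2 heq
    · exact hdist _ _ h i.2 heq.symm
  -- the norm computation
  have hjmem : ∀ u ∈ U, ρ (t ^ p ^ j) u ∈ U := fun u hu => hj (Submodule.mem_map_of_mem hu)
  have hsubmem : ∀ u ∈ U, (ρ (t ^ p ^ j) - 1) u ∈ U := by
    intro u hu
    rw [LinearMap.sub_apply, Module.End.one_apply]
    exact U.sub_mem (hjmem u hu) hu
  have hpj : 0 < p ^ j := pow_pos hp.pos j
  have hpnj : 0 < p ^ (n - j) := pow_pos hp.pos _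
  have hkey : ∀ w ∈ U, ((ρ (t ^ p ^ j) - 1) ^ (p ^ (n - j) - 1)) w = 0 := by
    intro w hw
    set s := p ^ (n - j) - 1 with hs
    set v := ((ρ (t ^ p ^ j) - 1) ^ s) w with hv
    have hvU : v ∈ U := pow_apply_mem_of_invariant U _ hsubmem s w hw
    have hexp : p ^ j - 1 + p ^ j * s = p ^ n - 1 := by
      have h3 : p ^ j * p ^ (n - j) = p ^ n := by
        rw [← pow_add]; congr 1; omega
      have h4 : p ^ j * s = p ^ n - p ^ j := by
        rw [hs, Nat.mul_sub, mul_one, h3]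
      have h5 : p ^ j ≤ p ^ n := Nat.pow_le_pow_right hp.pos hjn
      omega
    have hid : (ρ t - 1) ^ (p ^ j - 1 + p ^ j * s) =
        (∑ i ∈ Finset.range (p ^ j), (ρ t) ^ i) * ((ρ t) ^ (p ^ j) - 1) ^ s := by
      rw [pow_add, pow_mul, sub_one_pow_char_pow_end p (ρ t) j, geom_sum_end_eq p (ρ t) j]
    have hsum : ∑ i ∈ Finset.range (p ^ j), ρ (t ^ i) v = 0 := by
      have h3 := hnz w (hUW hw)
      rw [← hexp, hid, Module.End.mul_apply, ← hρpow, ← hv, LinearMap.sum_apply] at h3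
      rw [← h3]
      exact Finset.sum_congr rfl (fun i _ => by rw [hρpow])
    have h6 := hI ρ Q W hcl2 (Fin (p ^ j)) (fun i => U.map (ρ (t ^ (i : ℕ))))
      (fun i => ρ (t ^ (i : ℕ)) v) (fun i => hpiece i) hUsinj
      (fun i => Submodule.mem_map_of_mem hvU)
      (by rw [Fin.sum_univ_eq_sum_range (fun i => ρ (t ^ i) v) (p ^ j)]; exact hsum)
      ⟨0, hpj⟩
    simpa using h6
  refine ⟨j, ?_, hj, hkey⟩
  by_contra hlt
  have hjeq : j = n := by omega
  apply hU0
  rw [eq_bot_iff]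
  intro w hw
  have h3 := hkey w hw
  rw [hjeq, Nat.sub_self, pow_zero, Nat.sub_self, pow_zero, Module.End.one_apply] at h3
  rw [Submodule.mem_bot]; exact h3

end Cfsg.Agent.Lib.Helper75.HH86
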